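import Cfsg.Agent.H22.AvgIdem
import Cfsg.Agent.H22.PairDefectDict
import Cfsg.Agent.H40.InducedBlocks
import Cfsg.Agent.H55.PiCore

/-!
# `π'`-cores in kernels of local blocks
-/

set_option autoImplicit false
set_option linter.unusedSectionVars false

namespace Cfsg.Agent.H22

open MonoidAlgebra
open Cfsg (piCore piCoreOf)
open Cfsg.Agent.H55 (PiDvd piCoreOf_le piCoreOf_piDvd le_piCoreOf le_normalizer_piCoreOf
  normalizer_le_normalizer_piCoreOf)

section Abstract

variable {k : Type*} [Field k] {G : Type*} [Group G] [Finite G] {p : ℕ} [Fact p.Prime] [CharP k p]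
variable {π : Set ℕ}

theorem not_dvd_of_piDvd (hp : p ∈ π) {n : ℕ} (h : PiDvd {q | q ∉ π} n) : ¬ p ∣ n :=
  fun hd => h p Fact.out hd hp

theorem cast_ne_zero_of_piDvd (hp : p ∈ π) {K : Subgroup G}
    (h : PiDvd {q | q ∉ π} (Nat.card K)) : (Nat.card K : k) ≠ 0 :=
  natCard_cast_ne_zero (p := p) (not_dvd_of_piDvd hp h)

/-- The `π'`-core of the centraliser lies in the kernel of the pair. -/
def KerPair (π : Set ℕ) (a : Subgroup G × MonoidAlgebra k G) : Prop :=
  avg k (piCoreOf {q | q ∉ π} (Subgroup.centralizer (a.1 : Set G))) * a.2 = a.2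

/-- Every `π'`-subgroup of the centraliser lies in the kernel of the pair. -/
def HallKer (π : Set ℕ) (a : Subgroup G × MonoidAlgebra k G) : Prop :=
  ∀ K : Subgroup G, K ≤ Subgroup.centralizer (a.1 : Set G) →
    PiDvd {q | q ∉ π} (Nat.card K) → avg k K * a.2 = a.2

theorem KerPair.of_nsub (hp : p ∈ π) {a c : Subgroup G × MonoidAlgebra k G}
    (h : NSub p ⊤ a c) (hc : KerPair π c) : KerPair π a := by
  obtain ⟨Q, f⟩ := a
  obtain ⟨R, g⟩ := c
  have hle : Q ≤ R := h.le
  set C := Subgroup.centralizer (Q : Set G)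
  have hRK : R ≤ Subgroup.normalizer (piCoreOf {q | q ∉ π} C : Set G) :=
    (h.normal.trans (normalizer_le_normalizer_centralizer Q)).trans
      (normalizer_le_normalizer_piCoreOf _ C)
  have hblock : IsBlockEl C f := by simpa using h.left.block
  refine avg_mul_descend h.right.pGroup hRK (piCoreOf_le _ C) (le_normalizer_piCoreOf _ C)
    (not_dvd_of_piDvd hp (piCoreOf_piDvd _ C)) hblock h.inv h.right.block.ne_zero h.occ ?_
  exact avg_mul_of_le (H55.piCoreOf_inf_le (Subgroup.centralizer_le hle))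
    (cast_ne_zero_of_piDvd (p := p) hp ((piCoreOf_piDvd _ C).subgroup_le inf_le_left)) hc

theorem KerPair.of_ple (hp : p ∈ π) {a c : Subgroup G × MonoidAlgebra k G}
    (h : PLe p ⊤ a c) (hc : KerPair π c) : KerPair π a := by
  induction h using Relation.ReflTransGen.head_induction_on with
  | refl => exact hc
  | head hstep _ ih => exact KerPair.of_nsub hp hstep ih

theorem KerPair.of_conj (hp : p ∈ π) (x : G) {a : Subgroup G × MonoidAlgebra k G}
    (h : KerPair π (cS x a.1, cj x a.2)) : KerPair π a := by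
  obtain ⟨Q, f⟩ := a
  set K := piCoreOf {q | q ∉ π} (Subgroup.centralizer (Q : Set G))
  have hle : cS x K ≤ piCoreOf {q | q ∉ π}
      (Subgroup.centralizer ((cS x Q : Subgroup G) : Set G)) := by
    refine le_piCoreOf ?_ ?_ ((piCoreOf_piDvd _ _).map _)
    · rw [← cS_centralizer]
      exact cS_mono (piCoreOf_le _ _)
    · rw [← cS_centralizer, ← cS_normalizer]
      exact cS_mono (le_normalizer_piCoreOf _ _)
  have h1 : avg k (cS x K) * cj x f = cj x f :=
    avg_mul_of_le hle (cast_ne_zero_of_piDvd (p := p) hp ((piCoreOf_piDvd _ _).map _)) h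
  rw [← cj_avg, ← map_mul] at h1
  exact (cj x).injective h1

theorem HallKer.ascend {a c : Subgroup G × MonoidAlgebra k G}
    (h : NSub p ⊤ a c) (ha : HallKer π a) : HallKer π c := by
  intro K hK hπ
  have hRK : c.1 ≤ Subgroup.normalizer (K : Set G) :=
    (show c.1 ≤ Subgroup.centralizer (K : Set G) from Subgroup.le_centralizer_iff.1 hK).trans
      (Subgroup.centralizer_le_normalizer _)
  have := avg_mul_ascend h.right.pGroup hRK h.inv h.occ
    (ha K (hK.trans (Subgroup.centralizer_le h.le)) hπ)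
  rwa [inf_eq_left.2 hK] at this

theorem HallKer.of_ple {a c : Subgroup G × MonoidAlgebra k G}
    (h : PLe p ⊤ a c) (ha : HallKer π a) : HallKer π c := by
  induction h with
  | refl => exact ha
  | tail _ hstep ih => exact ih.ascend hstep

theorem HallKer.conj {a : Subgroup G × MonoidAlgebra k G} (ha : HallKer π a) (x : G) :
    HallKer π (cS x a.1, cj x a.2) := by
  intro K hK hπ
  have h1 := ha (cS x⁻¹ K) (by
    rw [← cS_inv_cS x (Subgroup.centralizer (a.1 : Set G)), cS_centralizer]
    exact cS_mono hK) (hπ.map _)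
  have := congrArg (cj x) h1
  rwa [map_mul, cj_avg, cS_cS_inv] at this

/-- A block element is killed by its `π'`-core as soon as one of its pairs is. -/
theorem avg_mul_of_kerPair (hp : p ∈ π) {L R : Subgroup G} (hRL : R ≤ L)
    (hCL : Subgroup.centralizer (R : Set G) ≤ L) {α g : MonoidAlgebra k G}
    (hα : IsBlockEl L α) (hR : IsPGroup p R) (hg0 : g ≠ 0)
    (hg : cut (Subgroup.centralizer (R : Set G)) α * g = g) (hker : KerPair π (R, g)) :
    avg k (piCoreOf {q | q ∉ π} L) * α = α :=
  avg_mul_descend hR (hRL.trans (le_normalizer_piCoreOf _ L)) (piCoreOf_le _ L)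
    (le_normalizer_piCoreOf _ L) (not_dvd_of_piDvd hp (piCoreOf_piDvd _ L)) hα
    (hα.cent.inv.mono hRL) hg0 hg
    (avg_mul_of_le (H55.piCoreOf_inf_le hCL)
      (cast_ne_zero_of_piDvd (p := p) hp ((piCoreOf_piDvd _ L).subgroup_le inf_le_left)) hker)

end Abstract

/-! ### Blocks -/

section Blocks

open Cfsg
open Cfsg.Agent.H41 (ResField localRing groupAlgCenter omegaBar idemBar)

universe u

variable {G : Type u} [Group G] [Finite G] {p : ℕ} [Fact p.Prime] {M : Ideal AlgInt} [M.IsMaximal]
variable [CharP (ResField M) p] {π : Set ℕ}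

theorem avg_piCoreOf_mul_el_iff (hM : IsPModular p M) (hp : p ∈ π) {L : Subgroup G}
    {B : Set (IrrCharacter L)} (hB : IsPBlock M B) :
    avg (ResField M) (piCoreOf {q | q ∉ π} L) * el M L B = el M L B ↔
      ∀ x : L, x ∈ piCore {q | q ∉ π} L → x ∈ blockKer B :=
  avg_mul_bk_iff hM L.subtype_injective hB (piCore {q | q ∉ π} L)
    (not_dvd_of_piDvd hp (H55.piCore_piDvd _))

/-- A pair below a block of a subgroup is a pair of the induced block. -/
theorem below_elTop_of_induced {G₀ : Subgroup G} {B₀ : Set (IrrCharacter G₀)}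
    {B : Set (IrrCharacter G)} (hind : IsInducedBlock M G₀ B₀ B) {R : Subgroup G}
    (hR : IsPGroup p R) (hRG : R ≤ G₀) (hC : Subgroup.centralizer (R : Set G) ≤ G₀)
    {g : MonoidAlgebra (ResField M) G} (hg : IsBlockEl (Subgroup.centralizer (R : Set G)) g)
    (hbel : Below (el M G₀ B₀) (R, g)) : Below (elTop M B) (R, g) := by
  obtain ⟨b', ⟨hb', hb'g⟩, -⟩ := existsUnique_below (split M G) (H := (⊤ : Subgroup G)) (p := p)
    (c := (R, g)) ⟨le_top, hR, by rw [cen_top]; exact hg⟩
  obtain ⟨B', hB', rfl⟩ := exists_elTop_eq hb'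
  obtain ⟨ξ, hξ⟩ := H41.IsPBlock.nonempty hind.1
  obtain ⟨χ, hχ⟩ := H41.IsPBlock.nonempty hind.2.1
  set C := Subgroup.centralizer (R : Set G)
  set z0 := H40.restrictZ M G₀ (idemBar hB') with hz0
  set c := omegaBar M ξ z0 with hc_def
  have hz : emb G₀.subtype (z0 : MonoidAlgebra (ResField M) G₀) = cut G₀ (elTop M B') := by
    refine H40.ext_coeff fun x => ?_
    by_cases hx : x ∈ G₀
    · show (emb G₀.subtype _).coeff (G₀.subtype ⟨x, hx⟩) = _
      rw [coeff_emb_apply G₀.subtype_injective, hz0, H40.coe_brauerZ,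
        H40.coeff_brauerMap_of_mem _ (H40.mem_centralizer_bot _),
        coeff_cut_of_mem _ hx, coeff_elTop, H41.coeff_idemBar, resT_of_mem]
    · rw [coeff_emb_notMem _ (by rwa [G₀.range_subtype]), coeff_cut_of_notMem _ hx]
  set α := el M G₀ B₀ with hα_def
  set β := cut G₀ (elTop M B') with hβ_def
  have hnil : IsNilpotent (β * α - c • α) := by
    have := ((H41.isNilpotent_sub_mul_idemBar hind.1 hξ z0).map
      (groupAlgCenter (ResField M) G₀).val).map (emb (k := ResField M) G₀.subtype)
    rw [hα_def, el, bk_eq hind.1]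
    simpa [sub_mul, hz, hc_def, Algebra.algebraMap_eq_smul_one] using this
  have hβ : Inv R β := (hb'.cent.inv.mono le_top).cut (hRG.trans Subgroup.le_normalizer)
  have hα : Inv R α := (isBlockEl_el hind.1).cent.inv.mono hRG
  have hcut : cut C β = cut C (elTop M B') := by
    rw [hβ_def, cut_cut, inf_eq_left.2 hC]
  have hn := isNilpotent_cut hR ((hβ.mul hα).sub (hα.smul c)) hnil
  rw [map_sub, map_smul, cut_mul hR hβ hα, hcut] at hn
  have hcomm : Commute (cut C (elTop M B') * cut C α - c • cut C α) g :=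
    (hg.cent.comm (((supp_cut C _).mul (supp_cut C _)).sub ((supp_cut C _).smul c))).symm
  have hn2 := hcomm.isNilpotent_mul_right hn
  have hb'g' : cut C (elTop M B') * g = g := hb'g
  have hbel' : cut C α * g = g := hbel
  rw [sub_mul, mul_assoc, hbel', hb'g', smul_mul_assoc, hbel'] at hn2
  have hc : c = 1 := by
    by_contra hne
    refine hg.ne_zero (isIdempotentElem_eq_zero_of_isNilpotent hg.idem ?_)
    have hu : g = (1 - c)⁻¹ • (g - c • g) := by
      rw [show g - c • g = (1 - c) • g by rw [sub_smul, one_smul], smul_smul,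
        inv_mul_cancel₀ (sub_ne_zero.2 (Ne.symm hne)), one_smul]
    rw [hu]
    exact hn2.smul _
  rw [hc_def, hz0, H40.omegaBar_restrictZ_of_isInducedBlock hind hξ hχ,
    H41.omegaBar_idemBar] at hc
  have hmem : χ ∈ B' := by
    by_contra h
    rw [if_neg h] at hc
    exact zero_ne_one hc
  rwa [H41.block_eq_of_mem_of_mem hind.2.1 hB' hχ hmem]

/-- The hypothesis on the Brauer correspondent reaches every pair of the block. -/
theorem kerPair_of_below (hM : IsPModular p M) (hp : p ∈ π) {B : Set (IrrCharacter G)}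
    (hB : IsPBlock M B) {D : Subgroup G} (hBD : IsDefectGroup p M B D)
    {B₁ : Set (IrrCharacter ↥(Subgroup.normalizer (D : Set G)))}
    (hB₁ : IsInducedBlock M (Subgroup.normalizer (D : Set G)) B₁ B)
    (hB₁D : IsDefectGroup p M B₁ (D.subgroupOf (Subgroup.normalizer (D : Set G))))
    (hker : ∀ n : ↥(Subgroup.normalizer (D : Set G)),
      n ∈ piCore {q | q ∉ π} ↥(Subgroup.normalizer (D : Set G)) → n ∈ blockKer B₁)
    {a : Subgroup G × MonoidAlgebra (ResField M) G} (ha : IsPairEl p ⊤ a)
    (hab : Below (elTop M B) a) : KerPair π a := by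
  set N := Subgroup.normalizer (D : Set G)
  have hS := split M G
  have hb := isBlockEl_elTop hB
  have hD := (isDefectGroup_top_iff hM hB).1 hBD
  have hb1 := isBlockEl_el hB₁.1
  have hD1 := (isDefectGroup_subgroupOf_iff hM hB₁.1 Subgroup.le_normalizer).1 hB₁D
  obtain ⟨e, he, he1⟩ := exists_pair_below hS hb1 hD1.le hD1.pGroup hD1.ne_zero
  have hCN : Subgroup.centralizer (D : Set G) ≤ N := Subgroup.centralizer_le_normalizer _
  have heC : IsBlockEl (Subgroup.centralizer (D : Set G)) e := by
    have h : IsBlockEl (cen N D) e := he.block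
    rwa [show cen N D = Subgroup.centralizer (D : Set G) from inf_eq_left.2 hCN] at h
  have hpair : IsPairEl p ⊤ (D, e) := ⟨le_top, hD1.pGroup, by rw [cen_top]; exact heC⟩
  have heb := below_elTop_of_induced hB₁ hD1.pGroup Subgroup.le_normalizer hCN heC he1
  obtain ⟨h, -, hle⟩ := exists_conj_ple hS hb ha hab (isMaxEl_of_isDefEl hpair heb hD)
  refine KerPair.of_conj hp h (KerPair.of_ple hp hle ?_)
  set C := Subgroup.centralizer (D : Set G)
  have hK : piCoreOf {q | q ∉ π} C ≤ piCoreOf {q | q ∉ π} N :=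
    le_piCoreOf ((piCoreOf_le _ C).trans hCN)
      ((normalizer_le_normalizer_centralizer D).trans (normalizer_le_normalizer_piCoreOf _ C))
      (piCoreOf_piDvd _ C)
  have h1 := avg_mul_ascend hD1.pGroup
    (Subgroup.le_normalizer.trans ((normalizer_le_normalizer_centralizer D).trans
      (normalizer_le_normalizer_piCoreOf _ C)))
    (hb1.cent.inv.mono Subgroup.le_normalizer) he1
    (avg_mul_of_le hK (cast_ne_zero_of_piDvd (p := p) hp (piCoreOf_piDvd _ C))
      ((avg_piCoreOf_mul_el_iff hM hp hB₁.1).2 hker))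
  rwa [inf_eq_left.2 (piCoreOf_le _ C)] at h1

/-- The core of a subgroup lies in the kernel of a block inducing `B`. -/
theorem piCore_mem_blockKer_of_pair (hM : IsPModular p M) (hp : p ∈ π)
    {B : Set (IrrCharacter G)}
    (hall : ∀ a : Subgroup G × MonoidAlgebra (ResField M) G, IsPairEl p ⊤ a →
      Below (elTop M B) a → KerPair π a)
    {G₀ : Subgroup G} {B₀ : Set (IrrCharacter G₀)} (hind : IsInducedBlock M G₀ B₀ B)
    {R : Subgroup G} (hR : IsPGroup p R) (hRG : R ≤ G₀)
    (hC : Subgroup.centralizer (R : Set G) ≤ G₀)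
    (hne : cut (Subgroup.centralizer (R : Set G)) (el M G₀ B₀) ≠ 0) :
    ∀ x : G₀, x ∈ piCore {q | q ∉ π} G₀ → x ∈ blockKer B₀ := by
  obtain ⟨g, hg, hgα⟩ := exists_pair_below (split M G) (isBlockEl_el hind.1) hRG hR hne
  have hgC : IsBlockEl (Subgroup.centralizer (R : Set G)) g := by
    have h : IsBlockEl (cen G₀ R) g := hg.block
    rwa [show cen G₀ R = Subgroup.centralizer (R : Set G) from inf_eq_left.2 hC] at h
  exact (avg_piCoreOf_mul_el_iff hM hp hind.1).1
    (avg_mul_of_kerPair hp hRG hC (isBlockEl_el hind.1) hR hgC.ne_zero hgα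
      (hall _ ⟨le_top, hR, by rw [cen_top]; exact hgC⟩
        (below_elTop_of_induced hind hR hRG hC hgC hgα)))

end Blocks

end Cfsg.Agent.H22
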