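import Cfsg.Agent.H22.PairLocal
import Cfsg.Agent.H22.PairDict
import Cfsg.Agent.H43.PPrimeDegree

/-!
# Averaging idempotents of `p'`-subgroups, and kernels of blocks
-/

set_option autoImplicit false
set_option linter.unusedSectionVars false

namespace Cfsg.Agent.H22

open MonoidAlgebra

section Ind

variable {k : Type*} [CommRing k] {G : Type*} [Group G] [Finite G]

open scoped Classical in
/-- The element with constant coefficient `u` on `K`, zero elsewhere. -/
noncomputable def ind (K : Subgroup G) (u : k) : MonoidAlgebra k G :=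
  H40.ofFun fun x => if x ∈ K then u else 0

theorem coeff_ind_of_mem {K : Subgroup G} (u : k) {x : G} (h : x ∈ K) :
    (ind K u).coeff x = u := by simp [ind, h]

theorem coeff_ind_of_notMem {K : Subgroup G} (u : k) {x : G} (h : x ∉ K) :
    (ind K u).coeff x = 0 := by simp [ind, h]

theorem supp_ind (K : Subgroup G) (u : k) : Supp K (ind K u) :=
  fun _ hx => by_contra fun h => hx (coeff_ind_of_notMem u h)

theorem cj_ind (g : G) (K : Subgroup G) (u : k) : cj g (ind K u) = ind (cS g K) u := by
  apply H40.ext_coeff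
  intro x
  by_cases h : g⁻¹ * x * g ∈ K
  · rw [coeff_cj, coeff_ind_of_mem u h, coeff_ind_of_mem u (mem_cS.2 h)]
  · rw [coeff_cj, coeff_ind_of_notMem u h, coeff_ind_of_notMem u fun h' => h (mem_cS.1 h')]

theorem inv_ind {K R : Subgroup G} (h : R ≤ Subgroup.normalizer (K : Set G)) (u : k) :
    Inv R (ind K u) := fun g hg => by rw [cj_ind, cS_eq_self (h hg)]

theorem ind_mul_ind {K' K : Subgroup G} (h : K' ≤ K) (u v : k) :
    ind K' u * ind K v = ind K ((Nat.card K' : k) * (u * v)) := by
  classical
  have : Fintype G := Fintype.ofFinite G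
  apply H40.ext_coeff
  intro c
  rw [H40.coeff_mul_eq_sum]
  by_cases hc : c ∈ K
  · rw [coeff_ind_of_mem _ hc,
      ← Finset.sum_subset (Finset.subset_univ (Finset.univ.filter (· ∈ K')))]
    · rw [Finset.sum_congr rfl (g := fun _ => u * v) fun x hx => by
          rw [Finset.mem_filter] at hx
          rw [coeff_ind_of_mem u hx.2, coeff_ind_of_mem v (mul_mem (inv_mem (h hx.2)) hc)],
        Finset.sum_const, nsmul_eq_mul]
      congr 2
      rw [Nat.card_eq_fintype_card, Fintype.card_subtype]
    · intro x _ hx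
      rw [coeff_ind_of_notMem u fun hh => hx (Finset.mem_filter.2 ⟨Finset.mem_univ _, hh⟩),
        zero_mul]
  · rw [coeff_ind_of_notMem _ hc]
    refine Finset.sum_eq_zero fun x _ => ?_
    by_cases hx : x ∈ K'
    · rw [coeff_ind_of_notMem v (fun hh => hc ?_), mul_zero]
      simpa using mul_mem (h hx) hh
    · rw [coeff_ind_of_notMem u hx, zero_mul]

theorem emb_ind {H : Type*} [Group H] [Finite H] {f : H →* G} (hf : Function.Injective f)
    (K : Subgroup H) (u : k) : emb f (ind K u) = ind (K.map f) u := by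
  apply H40.ext_coeff
  intro x
  by_cases hx : x ∈ f.range
  · obtain ⟨h, rfl⟩ := hx
    by_cases hh : h ∈ K
    · rw [coeff_emb_apply hf, coeff_ind_of_mem u hh,
        coeff_ind_of_mem u (Subgroup.mem_map_of_mem f hh)]
    · rw [coeff_emb_apply hf, coeff_ind_of_notMem u hh, coeff_ind_of_notMem u
        fun h' => hh ((Subgroup.mem_map_iff_mem hf).1 h')]
  · rw [coeff_emb_notMem _ hx, coeff_ind_of_notMem u fun h' => hx (Subgroup.map_le_range f K h')]

end Ind

section Avg

variable {k : Type*} [Field k] {G : Type*} [Group G] [Finite G] {p : ℕ}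

/-- The average of the elements of `K`. -/
noncomputable def avg (k : Type*) [Field k] {G : Type*} [Group G] [Finite G] (K : Subgroup G) :
    MonoidAlgebra k G :=
  ind K (Nat.card K : k)⁻¹

theorem supp_avg (K : Subgroup G) : Supp K (avg k K) := supp_ind K _

theorem cj_avg (g : G) (K : Subgroup G) : cj g (avg k K) = avg k (cS g K) := by
  rw [avg, avg, cj_ind, card_cS]

theorem inv_avg {K R : Subgroup G} (h : R ≤ Subgroup.normalizer (K : Set G)) :
    Inv R (avg k K) := inv_ind h _

theorem isCent_avg {K L : Subgroup G} (hKL : K ≤ L)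
    (hN : L ≤ Subgroup.normalizer (K : Set G)) : IsCent L (avg k K) :=
  ⟨(supp_avg K).mono hKL, inv_avg hN⟩

theorem avg_mul_avg {K' K : Subgroup G} (h : K' ≤ K) (h0 : (Nat.card K' : k) ≠ 0) :
    avg k K' * avg k K = avg k K := by
  rw [avg, avg, ind_mul_ind h, ← mul_assoc, mul_inv_cancel₀ h0, one_mul]

/-- The average of a smaller group fixes what the average of a bigger one fixes. -/
theorem avg_mul_of_le {K' K : Subgroup G} (h : K' ≤ K) (h0 : (Nat.card K' : k) ≠ 0)
    {a : MonoidAlgebra k G} (ha : avg k K * a = a) : avg k K' * a = a := by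
  rw [← ha, ← mul_assoc, avg_mul_avg h h0]

variable [Fact p.Prime] [CharP k p]

theorem natCard_cast_ne_zero {K : Subgroup G} (h : ¬ p ∣ Nat.card K) : (Nat.card K : k) ≠ 0 :=
  fun hz => h ((CharP.cast_eq_zero_iff k p _).1 hz)

theorem natCard_inf_centralizer {R K : Subgroup G} (hR : IsPGroup p R)
    (hN : R ≤ Subgroup.normalizer (K : Set G)) :
    (Nat.card (K ⊓ Subgroup.centralizer (R : Set G) : Subgroup G) : k) = (Nat.card K : k) := by
  classical
  have : Fintype G := Fintype.ofFinite G
  have h := H40.sum_eq_sum_centralizer hR (M := k) (fun m => by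
      rw [nsmul_eq_mul, CharP.cast_eq_zero, zero_mul])
    (fun x => if x ∈ K then (1 : k) else 0)
    (fun q hq x => if_congr (Subgroup.mem_normalizer_iff.1 (hN hq) x).symm rfl rfl)
  rw [Finset.sum_boole, Finset.sum_boole, Finset.filter_filter] at h
  rw [Nat.card_eq_fintype_card, Nat.card_eq_fintype_card, Fintype.card_subtype,
    Fintype.card_subtype, h]
  refine congrArg (fun s : Finset G => (s.card : k)) (Finset.filter_congr fun x _ => ?_)
  rw [Subgroup.mem_inf, and_comm]

theorem cut_avg {R K : Subgroup G} (hR : IsPGroup p R)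
    (hN : R ≤ Subgroup.normalizer (K : Set G)) :
    cut (Subgroup.centralizer (R : Set G)) (avg k K) =
      avg k (K ⊓ Subgroup.centralizer (R : Set G)) := by
  apply H40.ext_coeff
  intro x
  by_cases hx : x ∈ Subgroup.centralizer (R : Set G)
  · rw [coeff_cut_of_mem _ hx]
    by_cases hK : x ∈ K
    · rw [avg, avg, coeff_ind_of_mem _ hK, coeff_ind_of_mem _ (Subgroup.mem_inf.2 ⟨hK, hx⟩),
        natCard_inf_centralizer hR hN]
    · rw [avg, avg, coeff_ind_of_notMem _ hK,
        coeff_ind_of_notMem _ fun h => hK (Subgroup.mem_inf.1 h).1]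
  · rw [coeff_cut_of_notMem _ hx, avg,
      coeff_ind_of_notMem _ fun h => hx (Subgroup.mem_inf.1 h).2]

/-- A kernel passes from a block element to the pieces of its truncation. -/
theorem avg_mul_ascend {R K : Subgroup G} (hR : IsPGroup p R)
    (hRK : R ≤ Subgroup.normalizer (K : Set G)) {α g : MonoidAlgebra k G} (hα : Inv R α)
    (hg : cut (Subgroup.centralizer (R : Set G)) α * g = g) (h : avg k K * α = α) :
    avg k (K ⊓ Subgroup.centralizer (R : Set G)) * g = g := by
  have h1 := congrArg (cut (Subgroup.centralizer (R : Set G))) h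
  rw [cut_mul hR (inv_avg hRK) hα, cut_avg hR hRK] at h1
  conv_lhs => rw [← hg]
  rw [← mul_assoc, h1, hg]

/-- A kernel passes from a piece of the truncation to the block element. -/
theorem avg_mul_descend {L R K : Subgroup G} (hR : IsPGroup p R)
    (hRK : R ≤ Subgroup.normalizer (K : Set G)) (hKL : K ≤ L)
    (hLK : L ≤ Subgroup.normalizer (K : Set G)) (hK : ¬ p ∣ Nat.card K)
    {α g : MonoidAlgebra k G} (hα : IsBlockEl L α) (hinv : Inv R α) (hg0 : g ≠ 0)
    (hg : cut (Subgroup.centralizer (R : Set G)) α * g = g)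
    (h : avg k (K ⊓ Subgroup.centralizer (R : Set G)) * g = g) :
    avg k K * α = α := by
  rcases hα.prim _ (isCent_avg hKL hLK) (avg_mul_avg le_rfl (natCard_cast_ne_zero hK)) with h0 | h0
  · refine absurd ?_ hg0
    have h1 := congrArg (fun a => cut (Subgroup.centralizer (R : Set G)) a * g) h0
    simp only [map_zero, zero_mul] at h1
    rwa [cut_mul hR (inv_avg hRK) hinv, cut_avg hR hRK, mul_assoc, hg, h] at h1
  · exact h0

end Avg

/-! ### Kernels of blocks -/

section Kernel

open Cfsg
open Cfsg.Agent.H41 (ResField localRing res groupAlgCenter omegaBar idemBar redZ incl omegaLoc omega)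

universe u v

variable {G : Type u} [Group G] [Finite G] {H : Type v} [Group H] [Finite H]
variable {p : ℕ} [Fact p.Prime] {M : Ideal AlgInt} [M.IsMaximal]

open scoped Classical in
/-- The average of a normal subgroup as a central element of the local group ring. -/
noncomputable def avgLoc (hM : IsPModular p M) (K : Subgroup H) [K.Normal]
    (hK : ¬ p ∣ Nat.card K) : groupAlgCenter (localRing M) H :=
  H41.centerOfFun (fun h => if h ∈ K then
      (⟨(Nat.card K : ℂ)⁻¹, H41.IsPModular.inv_natCast_mem hM hK⟩ : localRing M) else 0)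
    (by
      intro g h
      refine if_congr ⟨fun hh => ?_, fun hh => Subgroup.Normal.conj_mem inferInstance g hh h⟩ rfl rfl
      simpa [mul_assoc] using Subgroup.Normal.conj_mem (H := K) inferInstance _ hh h⁻¹)

theorem coe_redZ_avgLoc (hM : IsPModular p M) (K : Subgroup H) [K.Normal]
    (hK : ¬ p ∣ Nat.card K) :
    ((redZ M (avgLoc hM K hK) : groupAlgCenter (ResField M) H) : MonoidAlgebra (ResField M) H) =
      avg (ResField M) K := by
  classical
  apply H40.ext_coeff
  intro x
  rw [H41.coeff_redZ, avgLoc, H41.coeff_centerOfFun]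
  by_cases hx : x ∈ K
  · rw [if_pos hx, avg, coeff_ind_of_mem _ hx]
    refine eq_inv_of_mul_eq_one_left ?_
    rw [← map_natCast (res M), ← map_mul, ← map_one (res M)]
    congr 1
    apply Subtype.ext
    push_cast
    exact inv_mul_cancel₀ (Nat.cast_ne_zero.2 Nat.card_pos.ne')
  · rw [if_neg hx, map_zero, avg, coeff_ind_of_notMem _ hx]

/-- A character sees the average of a normal subgroup as one or zero, as it is trivial on it or not. -/
theorem omega_avgLoc (hM : IsPModular p M) (K : Subgroup H) [K.Normal] (hK : ¬ p ∣ Nat.card K)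
    (χ : IrrCharacter H) :
    ((∀ x ∈ K, (χ : H → ℂ) x = (χ : H → ℂ) 1) → omegaBar M χ (redZ M (avgLoc hM K hK)) = 1) ∧
      (¬ (∀ x ∈ K, (χ : H → ℂ) x = (χ : H → ℂ) 1) →
        omegaBar M χ (redZ M (avgLoc hM K hK)) = 0) := by
  classical
  have : Fintype H := Fintype.ofFinite H
  have hs : ((omegaLoc M χ (avgLoc hM K hK) : localRing M) : ℂ) =
      (Nat.card K : ℂ)⁻¹ * (∑ n : K, (χ : H → ℂ) n) / (χ : H → ℂ) 1 := by
    rw [H41.coe_omegaLoc, H41.omega_apply]
    congr 1
    rw [Finset.mul_sum, ← Finset.sum_subset (Finset.subset_univ (Finset.univ.filter (· ∈ K)))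
      (fun x _ hx => ?_)]
    · rw [Finset.sum_subtype (p := (· ∈ K)) _ (fun x => by simp)]
      refine Finset.sum_congr rfl fun n _ => ?_
      simp [avgLoc]
    · simp only [Finset.mem_filter, Finset.mem_univ, true_and] at hx
      simp [avgLoc, hx]
  rw [H41.omegaBar_redZ]
  refine ⟨fun h => ?_, fun h => ?_⟩
  · have h1 : omegaLoc M χ (avgLoc hM K hK) = 1 := by
      apply Subtype.ext
      rw [hs, Finset.sum_congr rfl (g := fun _ : K => (χ : H → ℂ) 1) fun n _ => h n n.2, Finset.sum_const, Finset.card_univ,
        ← Nat.card_eq_fintype_card, nsmul_eq_mul, inv_mul_cancel_left₀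
          (Nat.cast_ne_zero.2 Nat.card_pos.ne'), div_self (H26.irr_one_ne_zero χ)]
      rfl
    rw [h1, map_one]
  · have h1 : omegaLoc M χ (avgLoc hM K hK) = 0 := by
      apply Subtype.ext
      rw [hs]
      by_contra hne
      refine h fun x hx => ?_
      refine H43.mem_charKer.1 (H43.le_charKer_of_one χ K ?_ hx)
      intro hm
      apply hne
      have hch : IsCharacter K (fun n : K => (χ : H → ℂ) n) :=
        H26.isCharacter_comp (H26.irr_isCharacter χ) K.subtype
      have := H43.classInner_eq_mult hch (H26.oneIrr K)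
      rw [show H43.mult (fun n : K => (χ : H → ℂ) n) (H26.oneIrr K) = 0 from hm, classInner] at this
      simp only [H26.oneIrr_val, map_one, mul_one, Nat.cast_zero] at this
      rw [this, zero_div]
      rfl
    rw [h1, map_zero]

/-- A normal `p'`-subgroup lies in the kernel of a block iff its average absorbs the block. -/
theorem avg_mul_bk_iff (hM : IsPModular p M) {f : H →* G} (hf : Function.Injective f)
    {B : Set (IrrCharacter H)} (hB : IsPBlock M B) (K : Subgroup H) [K.Normal]
    (hK : ¬ p ∣ Nat.card K) :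
    avg (ResField M) (K.map f) * bk M f B = bk M f B ↔ ∀ x ∈ K, x ∈ blockKer B := by
  have := H41.IsPModular.charP hM
  set z := redZ M (avgLoc hM K hK) with hz_def
  have hz : z * z = z := Subtype.ext (by
    rw [MulMemClass.coe_mul, hz_def, coe_redZ_avgLoc,
      avg_mul_avg le_rfl (natCard_cast_ne_zero hK)])
  have he : avg (ResField M) (K.map f) * bk M f B =
      emb f ((z * idemBar hB : groupAlgCenter (ResField M) H) : MonoidAlgebra (ResField M) H) := by
    rw [MulMemClass.coe_mul, map_mul, bk_eq hB, hz_def, coe_redZ_avgLoc, avg, avg, emb_ind hf,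
      Subgroup.card_map_of_injective hf]
  rw [he, bk_eq hB, (emb_injective hf).eq_iff, Subtype.coe_inj]
  constructor
  · intro h x hx χ hχ
    by_contra hne
    have h0 := (omega_avgLoc hM K hK χ).2 fun hall => hne (hall x hx)
    rw [(center_mul_idemBar hB hχ hz).2.1 h] at h0
    exact one_ne_zero h0
  · intro h
    obtain ⟨χ, hχ⟩ := H41.IsPBlock.nonempty hB
    exact (center_mul_idemBar hB hχ hz).2.2
      ((omega_avgLoc hM K hK χ).1 fun x hx => h x hx χ hχ)

end Kernel

end Cfsg.Agent.H22
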